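import Cfsg.Prelude.Def_CaseTheorems

/-! Klein four-subgroups spanned by two commuting involutions. -/

set_option autoImplicit false

namespace CfsgLib.KGroups

variable {G : Type*} [Group G]

/-- The four-subgroup `{1, a, b, ab}` of two commuting involutions. -/
theorem exists_klein {a b : G} (ha : orderOf a = 2) (hb : orderOf b = 2) (hab : a * b = b * a)
    (hne : a ≠ b) :
    ∃ K : Subgroup G, IsKleinFour K ∧ a ∈ K ∧ b ∈ K ∧
      ∀ x ∈ K, x = 1 ∨ x = a ∨ x = b ∨ x = a * b := by
  have ha2 : a * a = 1 := by rw [← pow_two, ← ha, pow_orderOf_eq_one]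
  have hb2 : b * b = 1 := by rw [← pow_two, ← hb, pow_orderOf_eq_one]
  have ha1 : a ≠ 1 := fun h => by rw [h, orderOf_one] at ha; omega
  have hb1 : b ≠ 1 := fun h => by rw [h, orderOf_one] at hb; omega
  have hab1 : a * b ≠ 1 := fun h =>
    hne (mul_right_cancel (b := b) (h.trans hb2.symm))
  have e1 : a * (a * b) = b := by rw [← mul_assoc, ha2, one_mul]
  have e2 : b * (a * b) = a := by rw [hab, ← mul_assoc, hb2, one_mul]
  have e3 : a * b * a = b := by rw [hab, mul_assoc, ha2, mul_one]
  have e4 : a * b * b = a := by rw [mul_assoc, hb2, mul_one]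
  have e5 : a * b * (a * b) = 1 := by rw [mul_assoc, e2, ha2]
  let K : Subgroup G :=
    { carrier := {1, a, b, a * b}
      one_mem' := Or.inl rfl
      mul_mem' := by
        rintro x y (rfl | rfl | rfl | rfl) (rfl | rfl | rfl | rfl) <;>
          simp [ha2, hb2, e1, e2, e3, e4, e5, ← hab]
      inv_mem' := by
        rintro x (rfl | rfl | rfl | rfl)
        · simp
        · rw [inv_eq_of_mul_eq_one_left ha2]; simp
        · rw [inv_eq_of_mul_eq_one_left hb2]; simp
        · rw [inv_eq_of_mul_eq_one_left e5]; simp }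
  have hmem : ∀ x, x ∈ K → x = 1 ∨ x = a ∨ x = b ∨ x = a * b := fun x hx => hx
  have hsq : ∀ x : K, x ^ 2 = 1 := by
    rintro ⟨x, rfl | rfl | rfl | rfl⟩ <;> ext <;> simp [pow_two, ha2, hb2, e5]
  refine ⟨K, ⟨?_, ?_⟩, Or.inr (Or.inl rfl), Or.inr (Or.inr (Or.inl rfl)), hmem⟩
  · rw [show Nat.card K = ({1, a, b, a * b} : Set G).ncard from Nat.card_coe_set_eq _]
    rw [Set.ncard_eq_four]
    refine ⟨1, a, b, a * b, ha1.symm, hb1.symm, hab1.symm, hne, ?_, ?_, rfl⟩
    · exact fun h => hb1 (mul_left_cancel (a := a) (by rw [mul_one]; exact h.symm))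
    · exact fun h => ha1 (mul_right_cancel (b := b) (by rw [one_mul]; exact h.symm))
  · refine Nat.dvd_antisymm (Monoid.exponent_dvd_of_forall_pow_eq_one hsq) ?_
    have hm : a ∈ K := Or.inr (Or.inl rfl)
    have : orderOf (⟨a, hm⟩ : K) = 2 := (Subgroup.orderOf_mk a hm).trans ha
    exact this ▸ Monoid.order_dvd_exponent _

/-- A non-identity element of a four-subgroup is an involution. -/
theorem orderOf_of_mem_klein {K : Subgroup G} (hK : IsKleinFour K) {x : G} (hx : x ∈ K)
    (h1 : x ≠ 1) : orderOf x = 2 := by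
  have := congrArg (fun y : K => (y : G)) (IsKleinFour.mul_self (⟨x, hx⟩ : K))
  exact orderOf_eq_prime (by rw [pow_two]; exact this) h1

/-- Elements of a four-subgroup commute. -/
theorem klein_comm {K : Subgroup G} (hK : IsKleinFour K) {a b : G} (ha : a ∈ K) (hb : b ∈ K) :
    a * b = b * a :=
  congrArg (fun y : K => (y : G)) (IsKleinFour.isMulCommutative.is_comm.comm ⟨a, ha⟩ ⟨b, hb⟩)

/-- A four-subgroup has an involution outside any `{1, z}`. -/
theorem exists_klein_not {K : Subgroup G} (hK : IsKleinFour K) (z : G) :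
    ∃ x ∈ K, x ≠ 1 ∧ x ≠ z := by
  by_contra h
  push Not at h
  have h4 : Nat.card K = 4 := hK.card_four
  have hsub : (K : Set G) ⊆ {1, z} := fun x hx => by
    by_cases h1 : x = 1
    · exact Or.inl h1
    · exact Or.inr (h x hx h1)
  have := Set.ncard_le_ncard hsub (Set.toFinite _)
  have h2 : ({1, z} : Set G).ncard ≤ 2 := (Set.ncard_insert_le _ _).trans (by simp)
  rw [show (K : Set G).ncard = Nat.card K from (Nat.card_coe_set_eq _).symm, h4] at this
  omega

end CfsgLib.KGroups
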